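import Cfsg.Agent.SpFour96.SubfieldRoot

/-! Maximality of symplectic subfield groups, rank two included. -/

set_option autoImplicit false

namespace CfsgLib.SpFour96.Sp

open Matrix CfsgLib.TransvGL CfsgLib.AltFormTransv CfsgLib.Dickson
open CfsgLib.Subfield54 CfsgLib.Subfield54.Sp

variable {F : Type*} [Field F] [Fintype F] {F₀ : Subfield F}

variable {ι : Type} [Fintype ι] [DecidableEq ι] {f : (ι → F) → (ι → F) → F}
variable (hf : Cfsg.Geo.IsSymplecticForm f) (hR : RatForm f F₀) {M : Subgroup (GL ι F)}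
  (hI : ∀ g ∈ M, ∀ x y, f ((g : Matrix ι ι F) *ᵥ x) ((g : Matrix ι ι F) *ᵥ y) = f x y)
  (hT : ∀ v c, Rat F₀ v → c ∈ F₀ → sympT hf v c ∈ M)

include hR hI hT in
/-- A transvection with no rational vector orthogonal to its centre. -/
theorem long_root_of_injective {r : ℕ} (hr : r.Prime) (hcard : Fintype.card F = Nat.card F₀ ^ r)
    (hn : 4 ≤ Fintype.card ι) {b : ι → F} (hbM : sympT hf b 1 ∈ M) (hb0 : b ≠ 0)
    (hinj : ∀ w, Rat F₀ w → f w b = 0 → w = 0) :
    ∃ a, Rat F₀ a ∧ a ≠ 0 ∧ ∃ σ, σ ∉ F₀ ∧ sympT hf a σ ∈ M := by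
  classical
  have hr6 : 4 ≤ r := by
    by_contra hlt
    let L : (ι → F₀) → F := fun v => f (fun i => (v i : F)) b
    have hL : Function.Injective L := fun v w h => funext fun i => Subtype.ext (by
      have := congrFun (hinj ((fun i => (v i : F)) - fun i => (w i : F))
        (fun i => F₀.sub_mem (v i).2 (w i).2) (by rw [sub_left hf]; exact sub_eq_zero.mpr h)) i
      exact sub_eq_zero.mp this)
    have := Nat.card_le_card_of_injective L hL
    rw [Nat.card_fun, Nat.card_eq_fintype_card (α := F), hcard,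
      Nat.card_eq_fintype_card (α := ι)] at this
    exact absurd this (not_le.mpr (Nat.pow_lt_pow_right Finite.one_lt_card (by omega)))
  by_contra hno
  have horth : ∀ (a c : ι → F) (k : F), k ≠ 0 → sympT hf c k ∈ M → Rat F₀ a → a ≠ 0 → f a c = 0 →
      RatLine F₀ c := fun a c k hk hc ha ha0 hac => by
    by_contra hL
    exact hno ⟨a, ha, ha0, long_root_of_orth hf hR hT hk hc hL ha ha0 hac⟩
  -- the three vectors
  obtain ⟨i₀, -⟩ := exists_coord_ne hb0
  set a : ι → F := Pi.single i₀ 1 with ha_def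
  have ha : Rat F₀ a := rat_single i₀
  have ha0 : a ≠ 0 := by simp [ha_def]
  set p := f a b with hp_def
  have hp : p ≠ 0 := fun h => ha0 (hinj a ha h)
  obtain ⟨y₁, hy₁, hy₁a⟩ := exists_rat_pair_ne (F₀ := F₀) hf ha0
  set e := (f y₁ a)⁻¹ • y₁ with he_def
  have her : Rat F₀ e := hy₁.smul (F₀.inv_mem (hR _ _ hy₁ ha))
  have hea : f e a = 1 := by rw [he_def, hf.bilinear.smul_left, inv_mul_cancel₀ hy₁a]
  obtain ⟨a', ha', ha'0, hk'⟩ := exists_rat_kernel (F₀ := F₀) (k := 2) (by omega)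
    ![pair hf a, pair hf e] (by simp [Fin.forall_fin_two, ratD_pair hf hR, ha, her])
  have ha'a : f a' a = 0 := hk' 0
  have haa' : f a a' = 0 := orth_comm hf ha'a
  have ha'e : f a' e = 0 := hk' 1
  have hea' : f e a' = 0 := orth_comm hf ha'e
  have hae : f a e = -1 := by rw [hf.skew, hea]
  set p' := f a' b with hp'_def
  set ρ := p' / p with hρ_def
  have hρp : ρ * p = p' := by rw [hρ_def, div_mul_cancel₀ _ hp]
  have hli : ∀ s : F, a' ≠ s • a := fun s hs => ha'0 (by
    have : f a' e = -s := by rw [hs, hf.bilinear.smul_left, hae, mul_neg_one]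
    rw [hs, neg_eq_zero.mp (this.symm.trans ha'e), zero_smul])
  have hρ : ρ ∉ F₀ := fun h => hli ρ (sub_eq_zero.mp (hinj _ (ha'.sub (ha.smul h))
    (by rw [sub_left hf, hf.bilinear.smul_left, ← hp_def, hρp]; exact sub_self _)))
  have hquad : ∀ {u v : F}, u ∈ F₀ → v ∈ F₀ → ρ ^ 2 ≠ u + v * ρ :=
    not_quadratic hr hcard (by omega) hρ
  have hρ2 : ρ ^ 2 ∉ F₀ := fun h => hquad h F₀.zero_mem (by ring)
  obtain ⟨y₂, hy₂, hy₂a, hy₂a'⟩ := exists_rat_perp_sep hf hR ha ha0 (a := a') hli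
  set e' := (f y₂ a')⁻¹ • y₂ with he'_def
  have he'r : Rat F₀ e' := hy₂.smul (F₀.inv_mem (hR _ _ hy₂ ha'))
  have he'a : f e' a = 0 := by rw [he'_def, hf.bilinear.smul_left, hy₂a, mul_zero]
  have he'a' : f e' a' = 1 := by rw [he'_def, hf.bilinear.smul_left, inv_mul_cancel₀ hy₂a']
  have hba : f b a = -p := hf.skew b a
  have hba' : f b a' = -p' := hf.skew b a'
  set R := p' • a - p • a' with hR_def
  have hRb : f R b = 0 := by
    rw [hR_def, sub_left hf, hf.bilinear.smul_left, hf.bilinear.smul_left, ← hp_def, ← hp'_def]; ring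
  have hRa : f R a = 0 := by
    rw [hR_def, sub_left hf, hf.bilinear.smul_left, hf.bilinear.smul_left, hf.alternating, ha'a]; ring
  have hRa' : f R a' = 0 := by
    rw [hR_def, sub_left hf, hf.bilinear.smul_left, hf.bilinear.smul_left, hf.alternating, haa']; ring
  clear_value p p' e e' R ρ
  have ha'eq : a' = ρ • a - p⁻¹ • R := by
    rw [hR_def, smul_sub, smul_smul, smul_smul, inv_mul_cancel₀ hp, one_smul,
      show p⁻¹ * p' = ρ by rw [← hρp]; field_simp]
    module
  -- the plane group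
  let Kset : Set (GL (Fin 2) F) := {k | ∃ g ∈ M, ∃ α β : F,
    (g : Matrix ι ι F) *ᵥ a = k 0 0 • a + k 1 0 • b + α • R ∧
    (g : Matrix ι ι F) *ᵥ b = k 0 1 • a + k 1 1 • b + β • R ∧
    ∀ z, f z a = 0 → f z a' = 0 → f z b = 0 → (g : Matrix ι ι F) *ᵥ z = z}
  have hone : (1 : GL (Fin 2) F) ∈ Kset :=
    ⟨1, M.one_mem, 0, 0, by simp, by simp, fun z _ _ _ => by simp⟩
  have hmul : ∀ {k k'}, k ∈ Kset → k' ∈ Kset → k * k' ∈ Kset := by
    rintro k k' ⟨g, hg, α, β, ga, gb, gz⟩ ⟨g', hg', α', β', ga', gb', gz'⟩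
    have gR := gz R hRa hRa' hRb
    refine ⟨g * g', M.mul_mem hg hg', k' 0 0 * α + k' 1 0 * β + α', k' 0 1 * α + k' 1 1 * β + β',
      ?_, ?_, fun z h1 h2 h3 => by rw [Units.val_mul, ← mulVec_mulVec, gz' z h1 h2 h3, gz z h1 h2 h3]⟩
    · rw [Units.val_mul, ← mulVec_mulVec, ga', mulVec_add, mulVec_add, mulVec_smul, mulVec_smul,
        mulVec_smul, ga, gb, gR]
      simp only [Units.val_mul, Matrix.mul_apply, Fin.sum_univ_two]
      module
    · rw [Units.val_mul, ← mulVec_mulVec, gb', mulVec_add, mulVec_add, mulVec_smul, mulVec_smul,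
        mulVec_smul, ga, gb, gR]
      simp only [Units.val_mul, Matrix.mul_apply, Fin.sum_univ_two]
      module
  let K : Subgroup (GL (Fin 2) F) :=
    { carrier := Kset
      one_mem' := hone
      mul_mem' := hmul
      inv_mem' := fun {k} hk => by
        have hpow : ∀ m : ℕ, k ^ m ∈ Kset := fun m => by
          induction m with
          | zero => simpa using hone
          | succ m ih => rw [pow_succ]; exact hmul ih hk
        have : k⁻¹ = k ^ (orderOf k - 1) := by
          refine inv_eq_of_mul_eq_one_right ?_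
          rw [← pow_succ', Nat.sub_add_cancel (orderOf_pos k), pow_orderOf_eq_one]
        rw [this]; exact hpow _ }
  let U : AddSubgroup F :=
    { carrier := {x | ∃ c₁ ∈ F₀, ∃ c₂ ∈ F₀, x = p * (c₁ + c₂ * ρ ^ 2)}
      zero_mem' := ⟨0, F₀.zero_mem, 0, F₀.zero_mem, by ring⟩
      add_mem' := by
        rintro _ _ ⟨a, ha, b, hb, rfl⟩ ⟨c, hc, d, hd, rfl⟩
        exact ⟨a + c, F₀.add_mem ha hc, b + d, F₀.add_mem hb hd, by ring⟩
      neg_mem' := by
        rintro _ ⟨a, ha, b, hb, rfl⟩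
        exact ⟨-a, F₀.neg_mem ha, -b, F₀.neg_mem hb, by ring⟩ }
  have hUF : ∀ c ∈ F₀, ∀ u ∈ U, c * u ∈ U := by
    rintro c hc _ ⟨a, ha, b, hb, rfl⟩
    exact ⟨c * a, F₀.mul_mem hc ha, c * b, F₀.mul_mem hc hb, by ring⟩
  have hUK : ∀ u ∈ U, upperT u ∈ K := by
    rintro _ ⟨c₁, h₁, c₂, h₂, rfl⟩
    refine ⟨sympT hf a (-c₁) * sympT hf a' (-c₂),
      M.mul_mem (hT _ _ ha (F₀.neg_mem h₁)) (hT _ _ ha' (F₀.neg_mem h₂)), 0, -(c₂ * ρ), ?_, ?_,
      fun z hz1 hz2 _ => ?_⟩
    · simp [Units.val_mul, ← mulVec_mulVec, sympT_mulVec, haa', hf.alternating,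
        upperT, GeneralLinearGroup.mkOfDetNeZero]
    · rw [Units.val_mul, ← mulVec_mulVec, sympT_mulVec, sympT_mulVec, hf.bilinear.add_left,
        hf.bilinear.smul_left, ha'a, hba, hba', ha'eq, ← hρp]
      simp [upperT, GeneralLinearGroup.mkOfDetNeZero]
      match_scalars <;> field_simp <;> ring
    · simp [Units.val_mul, ← mulVec_mulVec, sympT_mulVec, hz1, hz2]
  let g₀ : GL (Fin 2) F := GeneralLinearGroup.mkOfDetNeZero !![1, 0; p, 1] (by simp [det_fin_two])
  have hg₀ : g₀ ∈ K := ⟨sympT hf b 1, hbM, 0, 0,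
    by simp [sympT_mulVec, g₀, GeneralLinearGroup.mkOfDetNeZero, hp_def],
    by simp [sympT_mulVec, hf.alternating, g₀, GeneralLinearGroup.mkOfDetNeZero],
    fun z _ _ hz => by simp [sympT_mulVec, hz]⟩
  have hall := exists_smul_upperT hr hcard K U hUF hUK (u₁ := p) (u₂ := p * ρ ^ 2)
    ⟨1, F₀.one_mem, 0, F₀.zero_mem, by ring⟩ ⟨0, F₀.zero_mem, 1, F₀.one_mem, by ring⟩ hp
    (by rwa [mul_div_cancel_left₀ _ hp]) hp hg₀ rfl
  obtain ⟨x₀, hx₀⟩ := exists_not_mem_image hcard (k := 3) (by omega)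
    fun c : Fin 3 → F₀ => -p * ((c 0 : F) + (c 1 : F) * ρ + (c 2 : F) * ρ ^ 2)
  obtain ⟨h, hhM, α, β, hha, hhb, hhz⟩ : ∃ h ∈ M, ∃ α β : F,
      (h : Matrix ι ι F) *ᵥ a = a + α • R ∧ (h : Matrix ι ι F) *ᵥ b = x₀ • a + b + β • R ∧
      ∀ z, f z a = 0 → f z a' = 0 → f z b = 0 → (h : Matrix ι ι F) *ᵥ z = z := by
    obtain ⟨k, ⟨g, hg, α, β, ga, gb, gz⟩, s, hs, hk⟩ :=
      hall (if (2 : F) = 0 then x₀ else x₀ / 2)
    rw [hk] at ga gb
    simp only [Matrix.cons_val', Matrix.cons_val_zero, Matrix.cons_val_one, Matrix.of_apply,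
      Matrix.empty_val', Matrix.cons_val_fin_one, zero_smul, add_zero] at ga gb
    generalize hx' : (if (2 : F) = 0 then x₀ else x₀ / 2) = x' at gb
    have hs2 : s ^ 2 = 1 := by
      have := hI g hg a b
      rw [ga, gb] at this
      simp [hf.bilinear.add_left, hf.bilinear.add_right, hf.bilinear.smul_left, hf.bilinear.smul_right,
        hf.alternating, hRb, hRa, orth_comm hf hRa, ← hp_def] at this
      refine mul_right_cancel₀ hp ?_
      linear_combination this
    by_cases h2 : (2 : F) = 0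
    · rw [← hx', if_pos h2] at gb
      have hs1 : s = 1 := by
        have : (s - 1) ^ 2 = 0 := by linear_combination hs2 + (1 - s) * h2
        exact sub_eq_zero.mp (pow_eq_zero_iff two_ne_zero |>.mp this)
      subst hs1
      exact ⟨g, hg, α, β, by simpa using ga, by simpa using gb, gz⟩
    · rw [← hx', if_neg h2] at gb
      have gR := gz R hRa hRa' hRb
      refine ⟨g * g, M.mul_mem hg hg, s * α + α, s * (x₀ / 2) * α + s * β + β, ?_, ?_,
        fun z h1 h2 h3 => by rw [Units.val_mul, ← mulVec_mulVec, gz z h1 h2 h3, gz z h1 h2 h3]⟩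
      · rw [Units.val_mul, ← mulVec_mulVec, ga, mulVec_add, mulVec_smul, mulVec_smul, ga, gR]
        have : s * s = 1 := by rw [← sq, hs2]
        linear_combination (norm := module) this • a
      · rw [Units.val_mul, ← mulVec_mulVec, gb, mulVec_add, mulVec_add, mulVec_smul, mulVec_smul,
          mulVec_smul, ga, gb, gR]
        have : s * s = 1 := by rw [← sq, hs2]
        have hx2 : x₀ / 2 + x₀ / 2 = x₀ := by field_simp; ring
        linear_combination (norm := module) this • ((x₀ / 2 + x₀ / 2) • a + b) + hx2 • a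
  have hha' : (h : Matrix ι ι F) *ᵥ a' = a' + (ρ * α) • R := by
    rw [ha'eq, mulVec_sub, mulVec_smul, mulVec_smul, hha, hhz R hRa hRa' hRb]; module
  have hpres := hI h hhM
  have hcentre : ∀ v, Rat F₀ v → f a v = 0 → f a R = 0 →
      f a ((h : Matrix ι ι F) *ᵥ v) = 0 → RatLine F₀ ((h : Matrix ι ι F) *ᵥ v) := by
    intro v hv _ _ hav
    refine horth a _ 1 one_ne_zero ?_ ha ha0 hav
    rw [← sympT_conj hf hpres]
    exact M.mul_mem (M.mul_mem hhM (hT v 1 hv F₀.one_mem)) (M.inv_mem hhM)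
  have haR : f a R = 0 := orth_comm hf hRa
  have hα : α = 0 := by
    by_contra hα
    have hm : α * p ≠ 0 := mul_ne_zero hα hp
    have e1 := RatLine.pair_ratio hR hf (hcentre a ha (hf.alternating a) haR
      (by rw [hha, hf.bilinear.add_right, hf.bilinear.smul_right, hf.alternating, haR]; ring)) her he'r
    have e2 := RatLine.pair_ratio hR hf (hcentre a' ha' haa' haR
      (by rw [hha', hf.bilinear.add_right, hf.bilinear.smul_right, haa', haR]; ring)) he'r her
    have e3 := RatLine.pair_ratio hR hf (hcentre (a + a') (ha.add ha')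
      (by rw [hf.bilinear.add_right, hf.alternating, haa', add_zero]) haR
      (by rw [mulVec_add, hha, hha']; simp [hf.bilinear.add_right, hf.bilinear.smul_right, hf.alternating,
        haa', haR])) her he'r
    have hae' : f a e' = 0 := orth_comm hf he'a
    have ha'e' : f a' e' = -1 := by rw [hf.skew, he'a']
    have hRe : f R e = -p' := by
      rw [hR_def, sub_left hf, hf.bilinear.smul_left, hf.bilinear.smul_left, hae, ha'e]; ring
    have hRe' : f R e' = p := by
      rw [hR_def, sub_left hf, hf.bilinear.smul_left, hf.bilinear.smul_left, hae', ha'e']; ring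
    rw [hha] at e1
    rw [hha'] at e2
    rw [mulVec_add, hha, hha'] at e3
    simp only [hf.bilinear.add_left, hf.bilinear.smul_left, hae, hae', ha'e, ha'e', hRe, hRe', ← hρp]
      at e1 e2 e3
    set γ := 1 / (α * p) with hγ
    set c := (-1 + α * -(ρ * p)) / (0 + α * p) with hc_def
    set c' := (-1 + ρ * α * p) / (0 + ρ * α * -(ρ * p)) with hc'_def
    have k1 : γ + ρ = -c := by rw [hγ, hc_def]; field_simp; ring
    have hρ0 : ρ ≠ 0 := fun h => hρ (h ▸ F₀.zero_mem)
    have k2 : γ - ρ = c' * ρ ^ 2 := by rw [hγ, hc'_def]; field_simp; ring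
    by_cases hc' : c' = 0
    · rw [hc'] at k2
      by_cases h2 : (2 : F) = 0
      · have hap : α * p * ρ = 1 := by
          have : γ = ρ := by linear_combination k2
          rw [← this, hγ, mul_one_div, div_self hm]
        apply hρ2
        convert e3 using 1
        have hn2 : (-1 + α * -(ρ * p) + (0 + ρ * α * -(ρ * p)) : F) = -ρ := by
          linear_combination (-1 - ρ) * hap - h2
        have hd2 : (0 + α * p + (-1 + ρ * α * p) : F) = α * p := by linear_combination hap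
        rw [hn2, hd2, eq_div_iff hm]
        linear_combination ρ * hap + ρ * h2
      · apply hρ
        have : ρ = -c / 2 := by field_simp; linear_combination k1 - k2
        rw [this]
        exact F₀.div_mem (F₀.neg_mem e1) (by simpa using F₀.add_mem F₀.one_mem F₀.one_mem |> (one_add_one_eq_two (R := F) ▸ ·))
    · exact hquad (u := -c / c') (v := -2 / c') (F₀.div_mem (F₀.neg_mem e1) e2)
        (F₀.div_mem (F₀.neg_mem (by simpa using F₀.add_mem F₀.one_mem F₀.one_mem |> (one_add_one_eq_two (R := F) ▸ ·))) e2)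
        (by field_simp; linear_combination k1 - k2)
  subst hα
  simp only [zero_smul, add_zero, mul_zero] at hha hha'
  have hperp : ∀ z, f z a = 0 → f z a' = 0 → (h : Matrix ι ι F) *ᵥ z = z := by
    intro z h1 h2
    have := hhz (z - (f z b / p) • a) (by rw [sub_left hf, hf.bilinear.smul_left, h1, hf.alternating]; ring)
      (by rw [sub_left hf, hf.bilinear.smul_left, h2, haa']; ring)
      (by rw [sub_left hf, hf.bilinear.smul_left, ← hp_def]; field_simp; ring)
    rwa [mulVec_sub, mulVec_smul, hha, sub_left_inj] at this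
  -- the images of the dual pair are rational
  have hline : ∀ v w, Rat F₀ v → Rat F₀ w → w ≠ 0 → (h : Matrix ι ι F) *ᵥ w = w → f w v = 0 →
      ∀ y, Rat F₀ y → (h : Matrix ι ι F) *ᵥ y = y → f y v ≠ 0 →
        Rat F₀ ((h : Matrix ι ι F) *ᵥ v) := by
    intro v w hv hw hw0 hhw hwv y hy hhy hyv
    obtain ⟨t, u, hu, htu⟩ := horth w ((h : Matrix ι ι F) *ᵥ v) 1 one_ne_zero
      (by rw [← sympT_conj hf hpres]
          exact M.mul_mem (M.mul_mem hhM (hT v 1 hv F₀.one_mem)) (M.inv_mem hhM))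
      hw hw0 (by rw [← hhw, hpres, hwv])
    have h1 : t * f y u = f y v := by
      rw [← hf.bilinear.smul_right, ← htu]
      conv_lhs => rw [← hhy]
      rw [hpres]
    have hyu : f y u ≠ 0 := fun h0 => hyv (by rw [← h1, h0, mul_zero])
    rw [htu]
    refine hu.smul ?_
    rw [eq_div_iff hyu |>.mpr h1]
    exact F₀.div_mem (hR _ _ hy hv) (hR _ _ hy hu)
  have hher := hline e a' her ha' ha'0 hha' ha'e a ha hha (by rw [hae]; exact neg_ne_zero.mpr one_ne_zero)
  have hhe'r := hline e' a he'r ha ha0 hha (orth_comm hf he'a) a' ha' hha'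
    (by rw [hf.skew, he'a']; exact neg_ne_zero.mpr one_ne_zero)
  -- the coefficients of a displacement
  have hdisp : ∀ v, (h : Matrix ι ι F) *ᵥ v - v =
      f e ((h : Matrix ι ι F) *ᵥ v - v) • a + f e' ((h : Matrix ι ι F) *ᵥ v - v) • a' := by
    intro v
    set d := (h : Matrix ι ι F) *ᵥ v - v with hd
    refine pairHom_injective hf (LinearMap.ext fun x => ?_)
    show f x d = f x (f e d • a + f e' d • a')
    have hx0 := hperp (x - f x a • e - f x a' • e')
      (by simp [sub_left hf, hf.bilinear.smul_left, hea, he'a])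
      (by simp [sub_left hf, hf.bilinear.smul_left, hea', he'a'])
    have h0 : f (x - f x a • e - f x a' • e') d = 0 := by
      rw [hd, sub_right hf, sub_eq_zero]
      conv_lhs => rw [← hx0]
      rw [hpres]
    rw [sub_left hf, sub_left hf, hf.bilinear.smul_left, hf.bilinear.smul_left] at h0
    rw [hf.bilinear.add_right, hf.bilinear.smul_right, hf.bilinear.smul_right]
    linear_combination h0
  obtain ⟨de, hde⟩ : ∃ d, d = (h : Matrix ι ι F) *ᵥ e - e := ⟨_, rfl⟩
  obtain ⟨de', hde'⟩ : ∃ d, d = (h : Matrix ι ι F) *ᵥ e' - e' := ⟨_, rfl⟩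
  have hb' : (h : Matrix ι ι F) *ᵥ b - b = f b a • de + f b a' • de' := by
    have := hperp (b - f b a • e - f b a' • e')
      (by simp [sub_left hf, hf.bilinear.smul_left, hea, he'a])
      (by simp [sub_left hf, hf.bilinear.smul_left, hea', he'a'])
    rw [mulVec_sub, mulVec_sub, mulVec_smul, mulVec_smul] at this
    rw [hde, hde']
    linear_combination (norm := module) this
  have hl := congrArg (f · b) hb'
  have hd1 := hdisp e
  have hd2 := hdisp e'
  rw [← hde] at hd1
  rw [← hde'] at hd2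
  refine hx₀ ![⟨f e de, hR _ _ her (hde ▸ hher.sub her)⟩,
    ⟨f e' de + f e de', F₀.add_mem (hR _ _ he'r (hde ▸ hher.sub her)) (hR _ _ her (hde' ▸ hhe'r.sub he'r))⟩,
    ⟨f e' de', hR _ _ he'r (hde' ▸ hhe'r.sub he'r)⟩] ?_
  set l₁ := f e de
  set l₂ := f e' de
  set m₁ := f e de'
  set m₂ := f e' de'
  rw [hd1, hd2, hhb] at hl
  simp [sub_left hf, neg_left hf, hf.bilinear.add_left, hf.bilinear.smul_left, hRb, ← hp_def, ← hp'_def, hba, hba'] at hl
  simp
  refine mul_right_cancel₀ hp ?_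
  linear_combination -hl - (p * l₂ + ρ * p * m₂ + p * m₁ + p' * m₂) * hρp


include hR hI hT in
/-- A subgroup strictly above the subfield group contains all transvections. -/
theorem sympT_mem_of_not_le {r : ℕ} (hr : r.Prime) (hcard : Fintype.card F = Nat.card F₀ ^ r)
    (hn : 4 ≤ Fintype.card ι) {g : GL ι F} (hg : g ∈ M) (hgH : g ∉ Cfsg.Geo.subfieldSubgroup F₀ 1) :
    ∀ v c, sympT hf v c ∈ M := by
  classical
  -- an irrational centre
  obtain ⟨v₀, hv₀, hv₀L⟩ : ∃ v : ι → F, Rat F₀ v ∧ ¬ RatLine F₀ ((g : Matrix ι ι F) *ᵥ v) := by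
    by_contra hno
    push Not at hno
    exact hgH (mem_subfield_of_ratLine hno)
  set b := (g : Matrix ι ι F) *ᵥ v₀ with hb
  have hbM : sympT hf b 1 ∈ M := by
    rw [hb, ← sympT_conj hf (hI g hg)]
    exact M.mul_mem (M.mul_mem hg (hT v₀ 1 hv₀ F₀.one_mem)) (M.inv_mem hg)
  have hb0 : b ≠ 0 := fun h => hv₀L ⟨0, 0, fun _ => F₀.zero_mem, by rw [h, smul_zero]⟩
  obtain ⟨a, ha, ha0, σ, hσ, hσM⟩ : ∃ a, Rat F₀ a ∧ a ≠ 0 ∧ ∃ σ, σ ∉ F₀ ∧ sympT hf a σ ∈ M := by
    by_cases hinj : ∀ w, Rat F₀ w → f w b = 0 → w = 0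
    · exact long_root_of_injective hf hR hI hT hr hcard hn hbM hb0 hinj
    · push Not at hinj
      obtain ⟨w, hw, hwb, hw0⟩ := hinj
      exact ⟨w, hw, hw0, long_root_of_orth hf hR hT one_ne_zero hbM hv₀L hw hw0 hwb⟩
  have hall := long_root_all hf hR hI hT hr hcard ha ha0 hσ hσM
  -- transfer to all rational vectors
  set C : (ι → F) → Prop := fun v => ∀ x, sympT hf v x ∈ M with hC
  have hmove : ∀ u v, Rat F₀ u → Rat F₀ v → f u v ≠ 0 → C u → C v := by
    intro u v hu hv huv hCu x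
    have ht := hT (v - u) (f u v)⁻¹ (hv.sub hu) (F₀.inv_mem (hR _ _ hu hv))
    rw [← sympT_maps hf huv, ← sympT_conj hf (sympT_preserves hf _ _)]
    exact M.mul_mem (M.mul_mem ht (hCu x)) (M.inv_mem ht)
  have hC0 : C 0 := fun x => by rw [sympT_zero_centre]; exact M.one_mem
  have hCrat : ∀ v, Rat F₀ v → C v := by
    intro v hv
    by_cases hv0 : v = 0
    · exact hv0 ▸ hC0
    obtain ⟨z, hz, hza, hzv⟩ := exists_rat_common (F₀ := F₀) hf ha0 hv0
    exact hmove z v hz hv hzv (hmove a z ha hz (fun h => hza (orth_comm hf h)) hall)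
  have hsmul : ∀ (s : F) v, C v → C (s • v) := fun s v hv x => by
    rw [sympT_smul]; exact hv _
  have hadd : ∀ v w (t : F), C v → C w → f v w ≠ 0 → C (v + t • w) := by
    intro v w t hv hw hvw x
    have ht := hw (t / f v w)
    have e : (sympT hf w (t / f v w) : Matrix ι ι F) *ᵥ v = v + t • w := by
      rw [sympT_mulVec, div_mul_cancel₀ _ hvw]
    rw [← e, ← sympT_conj hf (sympT_preserves hf _ _)]
    exact M.mul_mem (M.mul_mem ht (hv x)) (M.inv_mem ht)
  -- spans of two rational vectors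
  have hpair : ∀ e e' (t : F), Rat F₀ e → Rat F₀ e' → C (e + t • e') := by
    intro e e' t he he'
    by_cases hee : f e e' ≠ 0
    · exact hadd e e' t (hCrat e he) (hCrat e' he') hee
    push Not at hee
    by_cases h1 : ∃ s : F, e = s • e'
    · obtain ⟨s, rfl⟩ := h1
      rw [← add_smul]; exact hsmul _ _ (hCrat e' he')
    by_cases h2 : ∃ s : F, e' = s • e
    · obtain ⟨s, rfl⟩ := h2
      rw [smul_smul, show e + (t * s) • e = (1 + t * s) • e by rw [add_smul, one_smul]]
      exact hsmul _ _ (hCrat e he)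
    push Not at h1 h2
    have he0 : e ≠ 0 := fun h => h1 0 (by rw [h, zero_smul])
    have he'0 : e' ≠ 0 := fun h => h2 0 (by rw [h, zero_smul])
    obtain ⟨z₁, hz₁, hz₁e', hz₁e⟩ := exists_rat_perp_sep hf hR he' he'0 h1
    obtain ⟨z₂, hz₂, hz₂e, hz₂e'⟩ := exists_rat_perp_sep hf hR he he0 h2
    set z := (-(f z₁ e)⁻¹) • z₁ + (-(f z₂ e')⁻¹) • z₂ with hz
    have hzr : Rat F₀ z := (hz₁.smul (F₀.neg_mem (F₀.inv_mem (hR _ _ hz₁ he)))).add
      (hz₂.smul (F₀.neg_mem (F₀.inv_mem (hR _ _ hz₂ he'))))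
    have hez : f e z = 1 := by
      rw [hf.skew, hz, hf.bilinear.add_left, hf.bilinear.smul_left, hf.bilinear.smul_left, hz₂e, neg_mul,
        inv_mul_cancel₀ hz₁e]
      ring
    have he'z : f e' z = 1 := by
      rw [hf.skew, hz, hf.bilinear.add_left, hf.bilinear.smul_left, hf.bilinear.smul_left, hz₁e', neg_mul,
        neg_mul, inv_mul_cancel₀ hz₂e']
      ring
    by_cases ht : t = -1
    · subst ht
      refine hCrat _ (he.add (he'.smul (F₀.neg_mem F₀.one_mem)))
    have h4 : C (e + (1 : F) • z + t • e') :=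
      hadd _ _ t (hadd e z 1 (hCrat e he) (hCrat z hzr) (by rw [hez]; exact one_ne_zero)) (hCrat e' he') (by
        rw [hf.bilinear.add_left, hf.bilinear.smul_left, hee, hf.skew z e', he'z]
        simp)
    have h5 := hadd _ z (-1) h4 (hCrat z hzr) (by
      rw [hf.bilinear.add_left, hf.bilinear.add_left, hf.bilinear.smul_left, hf.bilinear.smul_left,
        hez, he'z, hf.alternating, mul_zero, add_zero, mul_one]
      exact fun h => ht (by linear_combination h))
    convert h5 using 1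
    module
  -- everything
  have h4 : 4 ≤ Fintype.card F := by
    rw [hcard]
    calc 4 = 2 ^ 2 := by norm_num
      _ ≤ Nat.card F₀ ^ 2 := Nat.pow_le_pow_left Finite.one_lt_card 2
      _ ≤ Nat.card F₀ ^ r := Nat.pow_le_pow_right Nat.card_pos hr.two_le
  have hstep : ∀ v e (t : F), C v → Rat F₀ e → C (v + t • e) := by
    intro v e t hv he
    by_cases hve : f v e ≠ 0
    · exact hadd v e t hv (hCrat e he) hve
    push Not at hve
    by_cases hv0 : v = 0
    · rw [hv0, zero_add]; exact hsmul t e (hCrat e he)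
    by_cases he0 : e = 0
    · rw [he0, smul_zero, add_zero]; exact hv
    by_cases hsum : v + t • e = 0
    · rw [hsum]; exact hC0
    obtain ⟨x, hx, hxv, hxe⟩ := exists_rat_common (F₀ := F₀) hf hv0 he0
    obtain ⟨y, hy, hy3⟩ := exists_rat_pair_ne (F₀ := F₀) hf hsum
    obtain ⟨z, hzC, hzv, hze, hzs⟩ : ∃ z, C z ∧ f z v ≠ 0 ∧ f z e ≠ 0 ∧ f z (v + t • e) ≠ 0 := by
      by_cases hx3 : f x (v + t • e) ≠ 0
      · exact ⟨x, hCrat x hx, hxv, hxe, hx3⟩
      push Not at hx3
      obtain ⟨c, hc⟩ : ∃ c : F, c ∉ ({0, -(f x v) / f y v, -(f x e) / f y e} : Finset F) := by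
        refine Finset.exists_mem_notMem_of_card_lt_card (t := Finset.univ) ?_ |>.imp fun c hc => hc.2
        rw [Finset.card_univ]
        exact lt_of_le_of_lt Finset.card_le_three (by omega)
      simp only [Finset.mem_insert, Finset.mem_singleton, not_or] at hc
      refine ⟨x + c • y, hpair x y c hx hy, ?_, ?_, ?_⟩
      · rw [hf.bilinear.add_left, hf.bilinear.smul_left]
        intro h
        by_cases hyv : f y v = 0
        · rw [hyv, mul_zero, add_zero] at h; exact hxv h
        · exact hc.2.1 (by rw [eq_div_iff hyv]; linear_combination h)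
      · rw [hf.bilinear.add_left, hf.bilinear.smul_left]
        intro h
        by_cases hye : f y e = 0
        · rw [hye, mul_zero, add_zero] at h; exact hxe h
        · exact hc.2.2 (by rw [eq_div_iff hye]; linear_combination h)
      · rw [hf.bilinear.add_left, hf.bilinear.smul_left, hx3, zero_add]
        exact mul_ne_zero hc.1 hy3
    have hvz : f v z ≠ 0 := fun h => hzv (orth_comm hf h)
    have h1 : C (z + t • e) := hadd z e t hzC (hCrat e he) hze
    have h2 : C (v + (1 : F) • (z + t • e)) := hadd v _ 1 hv h1 (by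
      rw [hf.bilinear.add_right, hf.bilinear.smul_right, hve, mul_zero, add_zero]; exact hvz)
    have h3 := hadd _ z (-1) h2 hzC (by
      rw [one_smul, ← add_assoc, add_comm v z, add_assoc, hf.bilinear.add_left, hf.alternating, zero_add]
      exact fun h => hzs (orth_comm hf h))
    convert h3 using 1
    module
  have hsum : ∀ (v : ι → F) (S : Finset ι), C (∑ i ∈ S, v i • Pi.single i (1 : F)) := by
    intro v S
    induction S using Finset.induction_on with
    | empty => simpa using hC0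
    | @insert i S hi ih =>
      rw [Finset.sum_insert hi, add_comm]
      exact hstep _ _ _ ih (rat_single i)
  intro v c
  have := hsum v Finset.univ c
  rwa [← pi_eq_sum_univ' v] at this

/-- The subfield subgroups are maximal in the symplectic group. -/
theorem subfield_maximal_spGL {m : ℕ} (hm : 2 ≤ m) {r : ℕ} (hr : r.Prime)
    (hcard : Fintype.card F = Nat.card F₀ ^ r) (P : GL (Fin m ⊕ Fin m) F) {ζ : F} (hζ : ζ ≠ 0)
    (hP : Cfsg.Geo.IsFormRationalStructure (Cfsg.sympForm m F) F₀ ζ P) :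
    Cfsg.Geo.IsMaximalIn (Cfsg.spGL m F) (Cfsg.Geo.subfieldSubgroup F₀ P ⊓ Cfsg.spGL m F) := by
  classical
  have hstd := CfsgLib.SympFormStd.isSymplecticForm m F
  set s₀ := Cfsg.sympForm m F with hs₀
  let f : (Fin m ⊕ Fin m → F) → (Fin m ⊕ Fin m → F) → F :=
    fun x y => ζ * s₀ ((P : Matrix (Fin m ⊕ Fin m) (Fin m ⊕ Fin m) F) *ᵥ x) ((P : Matrix (Fin m ⊕ Fin m) (Fin m ⊕ Fin m) F) *ᵥ y)
  have hPinj : ∀ v : Fin m ⊕ Fin m → F, v ≠ 0 → (P : Matrix (Fin m ⊕ Fin m) (Fin m ⊕ Fin m) F) *ᵥ v ≠ 0 := fun v hv h => hv (by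
    have := congrArg (((P⁻¹ : GL (Fin m ⊕ Fin m) F) : Matrix (Fin m ⊕ Fin m) (Fin m ⊕ Fin m) F) *ᵥ ·) h
    rwa [inv_mulVec_mulVec, mulVec_zero] at this)
  have hf : Cfsg.Geo.IsSymplecticForm f :=
    { bilinear :=
      { add_left := fun x y v => by simp [f, mulVec_add, hstd.bilinear.add_left, mul_add]
        smul_left := fun c x v => by simp [f, mulVec_smul, hstd.bilinear.smul_left]; ring
        add_right := fun v x y => by simp [f, mulVec_add, hstd.bilinear.add_right, mul_add]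
        smul_right := fun c v x => by simp [f, mulVec_smul, hstd.bilinear.smul_right]; ring }
      skew := fun v w => by simp [f]; rw [hstd.skew]; ring
      alternating := fun v => by simp [f, hstd.alternating]
      nondegenerate := fun v hv => by
        obtain ⟨⟨x, hx⟩, ⟨y, hy⟩⟩ := hstd.nondegenerate _ (hPinj v hv)
        refine ⟨⟨((P⁻¹ : GL (Fin m ⊕ Fin m) F) : Matrix (Fin m ⊕ Fin m) (Fin m ⊕ Fin m) F) *ᵥ x, ?_⟩, ⟨((P⁻¹ : GL (Fin m ⊕ Fin m) F) : Matrix (Fin m ⊕ Fin m) (Fin m ⊕ Fin m) F) *ᵥ y, ?_⟩⟩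
        · simp only [f, mulVec_inv_mulVec]; exact mul_ne_zero hζ hx
        · simp only [f, mulVec_inv_mulVec]; exact mul_ne_zero hζ hy }
  have hR : RatForm f F₀ := fun u v hu hv => hP u v hu hv
  have hF : F₀ ≠ ⊤ := by
    intro h
    have e : Nat.card F₀ = Fintype.card F := by
      rw [h, Nat.card_congr Subfield.topEquiv.toEquiv, Nat.card_eq_fintype_card]
    rw [e] at hcard
    have := lt_self_pow₀ (Fintype.one_lt_card (α := F)) hr.one_lt
    omega
  have hn : 4 ≤ Fintype.card (Fin m ⊕ Fin m) := by simp; omega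
  refine ⟨lt_of_le_of_ne inf_le_right fun h => ?_, fun M hHM hMS => ?_⟩
  · exact CfsgLib.Aschbacher.Symp.not_le_subfieldSubgroup hstd
      (fun v c => CfsgLib.SympFormStd.sympT_mem_spGL v c) (by omega) hF P (h ▸ inf_le_left)
  by_cases hle : M ≤ Cfsg.Geo.subfieldSubgroup F₀ P
  · exact Or.inl (le_antisymm (le_inf hle hMS) hHM)
  refine Or.inr (le_antisymm hMS ?_)
  obtain ⟨g, hg, hgH⟩ := SetLike.not_le_iff_exists.mp hle
  set c := (MulAut.conj P).toMonoidHom with hc
  have hconj : ∀ x : GL (Fin m ⊕ Fin m) F, (∀ u v, f ((x : Matrix (Fin m ⊕ Fin m) (Fin m ⊕ Fin m) F) *ᵥ u) ((x : Matrix (Fin m ⊕ Fin m) (Fin m ⊕ Fin m) F) *ᵥ v) = f u v) ↔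
      c x ∈ Cfsg.spGL m F := by
    intro x
    rw [CfsgLib.SympFormStd.mem_spGL]
    have e : ∀ u, (c x : GL (Fin m ⊕ Fin m) F).val *ᵥ ((P : Matrix (Fin m ⊕ Fin m) (Fin m ⊕ Fin m) F) *ᵥ u) = (P : Matrix (Fin m ⊕ Fin m) (Fin m ⊕ Fin m) F) *ᵥ ((x : Matrix (Fin m ⊕ Fin m) (Fin m ⊕ Fin m) F) *ᵥ u) := by
      intro u
      rw [hc, MulEquiv.coe_toMonoidHom, MulAut.conj_apply, Units.val_mul, Units.val_mul, ← mulVec_mulVec,
        ← mulVec_mulVec, inv_mulVec_mulVec]
    constructor
    · intro h u v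
      have := h (((P⁻¹ : GL (Fin m ⊕ Fin m) F) : Matrix (Fin m ⊕ Fin m) (Fin m ⊕ Fin m) F) *ᵥ u) (((P⁻¹ : GL (Fin m ⊕ Fin m) F) : Matrix (Fin m ⊕ Fin m) (Fin m ⊕ Fin m) F) *ᵥ v)
      simp only [f, ← e, mulVec_inv_mulVec] at this
      exact mul_left_cancel₀ hζ this
    · intro h u v
      simp only [f, ← e, h, s₀]
  have key : ∀ v d, sympT hf v d ∈ M.comap c := by
    refine sympT_mem_of_not_le hf hR (fun x hx => (hconj x).2 (hMS hx)) (fun v d hv hd => ?_) hr hcard hn
      (g := P⁻¹ * g * P) ?_ ?_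
    · refine hHM ⟨?_, (hconj _).1 (sympT_preserves hf v d)⟩
      exact Subgroup.mem_map.mpr ⟨_, by
        simpa [Cfsg.Geo.subfieldSubgroup] using sympT_rat_mem_subfield hf hR hv hd, rfl⟩
    · simpa [c, ← mul_assoc] using hg
    · intro hmem
      apply hgH
      simp only [Cfsg.Geo.subfieldSubgroup, Subgroup.mem_map] at hmem ⊢
      obtain ⟨y, hy, hye⟩ := hmem
      exact ⟨y, hy, by simp_all [mul_assoc]⟩
  intro x hx
  have hx' : P⁻¹ * x * P ∈ M.comap c :=
    mem_of_preserves hf _ key _ ((hconj _).2 (by simpa [c, ← mul_assoc] using hx))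
  simpa [c, mul_assoc] using hx'



end CfsgLib.SpFour96.Sp
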