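import Cfsg.Agent.Classical.SympFormStd
import Cfsg.Agent.Eq.Def_GeometricClasses
import Cfsg.Agent.SmallSp.QuadIsometry

/-! Maximality of the orthogonal groups in `Sp_2m` in even characteristic, `m ≥ 2`. -/

set_option autoImplicit false
open Cfsg

namespace CfsgLib.SpFour96.QuadIsometry

section

open Matrix CfsgLib.TransvGL CfsgLib.AltFormTransv CfsgLib.SympFormStd

variable {F : Type*} [Field F] {m : ℕ}


open CfsgLib.SmallSp.QuadIsometry (two_eq_zero exists_sq Q_add Q_transv)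

variable {Q : (Fin m ⊕ Fin m → F) → F} (hQs : ∀ (c : F) (v : (Fin m ⊕ Fin m → F)), Q (c • v) = c ^ 2 * Q v)
  (hpol : ∀ u v, QuadraticMap.polar Q u v = Cfsg.sympForm m F u v)

theorem exists_orth_not_mem_small (hm : 2 ≤ m) (S : Finset (Fin m ⊕ Fin m → F))
    (hS : S.card < m ∨ (S.card ≤ m ∧ ∃ a ∈ S, ∃ b ∈ S, Cfsg.sympForm m F a b ≠ 0)) :
    ∃ z, (∀ w ∈ S, Cfsg.sympForm m F z w = 0) ∧ z ∉ Submodule.span F (S : Set (Fin m ⊕ Fin m → F)) := by
  rcases hS with hS | ⟨hS, a, ha, b, hb, hab⟩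
  · exact exists_orth_not_mem (isSymplecticForm m F) S (by simp; omega)
  set L : (Fin m ⊕ Fin m → F) →ₗ[F] (S → F) :=
    LinearMap.pi fun w => pair (isSymplecticForm m F) (w : Fin m ⊕ Fin m → F) with hL
  have h1 := LinearMap.finrank_range_add_finrank_ker L
  have h2 : Module.finrank F (LinearMap.range L) ≤ S.card :=
    (Submodule.finrank_le _).trans (by simp)
  have h3 : Module.finrank F (Fin m ⊕ Fin m → F) = m + m := by
    rw [Module.finrank_fintype_fun_eq_card]; simp
  have h4 : ¬ (LinearMap.ker L ≤ Submodule.span F (S : Set (Fin m ⊕ Fin m → F))) := fun hle => by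
    have h6 := finrank_span_finset_le_card (R := F) S
    rw [Set.finrank] at h6
    have h5 := Submodule.eq_of_le_of_finrank_le hle (by omega)
    have h7 : a ∈ LinearMap.ker L := h5.symm ▸ Submodule.subset_span ha
    have h8 := congrFun (LinearMap.mem_ker.1 h7) ⟨b, hb⟩
    exact hab (by simpa [hL] using h8)
  obtain ⟨z, hz, hzS⟩ := SetLike.not_le_iff_exists.1 h4
  refine ⟨z, fun w hw => ?_, hzS⟩
  have := congrFun (LinearMap.mem_ker.1 hz) ⟨w, hw⟩
  simpa [hL] using this

include hQs hpol in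
theorem exists_orth_value (hsq : ∀ a : F, ∃ s : F, s ^ 2 = a) (hm : 2 ≤ m) (S : Finset (Fin m ⊕ Fin m → F))
    (hS : S.card < m ∨ (S.card ≤ m ∧ ∃ a ∈ S, ∃ b ∈ S, Cfsg.sympForm m F a b ≠ 0)) (r : F) : ∃ l, (∀ w ∈ S, Cfsg.sympForm m F l w = 0) ∧ Q l = r := by
  obtain ⟨z, hzS, hz⟩ := exists_orth_not_mem_small hm S hS
  obtain ⟨d, hdU, hd⟩ := exists_orth_sep (isSymplecticForm m F) hz
  have hdS : ∀ w ∈ S, Cfsg.sympForm m F d w = 0 := fun w hw =>
    orth_comm (isSymplecticForm m F) (hdU w (Submodule.subset_span hw))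
  obtain ⟨l, hlS, hl⟩ : ∃ l, (∀ w ∈ S, Cfsg.sympForm m F l w = 0) ∧ Q l ≠ 0 := by
    by_contra hno
    push Not at hno
    have h3 := Q_add hpol z d
    rw [hno z hzS, hno d hdS, hno (z + d) fun w hw => by
      rw [(isSymplecticForm m F).bilinear.add_left, hzS w hw, hdS w hw, add_zero]] at h3
    exact hd (by linear_combination -h3)
  obtain ⟨s, hs'⟩ := hsq (r / Q l)
  refine ⟨s • l, fun w hw => by rw [(isSymplecticForm m F).bilinear.smul_left, hlS w hw, mul_zero], ?_⟩
  rw [hQs, hs', div_mul_cancel₀ r hl]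

include hQs hpol in
theorem mem_quadSim (g : GL (Fin m ⊕ Fin m) F) (hg : g ∈ Cfsg.spGL m F)
    (hsq : ∀ a : F, ∃ s : F, s ^ 2 = a) (hm : 2 ≤ m) (h2 : (2 : F) = 0)
    (h : ∀ v : (Fin m ⊕ Fin m → F), Q v = 1 → Q ((g : Matrix _ _ F) *ᵥ v) = 1) :
    g ∈ Cfsg.Geo.quadSimilarityGroup Q := by
  classical
  have hns : ∀ v : (Fin m ⊕ Fin m → F), Q v ≠ 0 → Q ((g : Matrix _ _ F) *ᵥ v) = Q v := by
    intro v hv
    obtain ⟨s, hs'⟩ := hsq (Q v)⁻¹
    have h1 : Q (s • v) = 1 := by rw [hQs, hs', inv_mul_cancel₀ hv]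
    have h3 := h _ h1
    rw [mulVec_smul, hQs, hs'] at h3
    field_simp at h3
    exact h3
  refine ⟨1, fun v => ?_⟩
  rw [Units.val_one, one_mul]
  by_cases hv : Q v = 0
  · obtain ⟨z, hz, hz1⟩ := exists_orth_value hQs hpol hsq hm {v} (Or.inl (by simp; omega)) 1
    have hzv : Cfsg.sympForm m F v z = 0 := orth_comm (isSymplecticForm m F) (hz v (by simp))
    have hvz : Q (v + z) = 1 := by rw [Q_add hpol, hv, hz1, hzv]; ring
    have h1 := h _ hvz
    rw [mulVec_add, Q_add hpol, h z hz1, (mem_spGL.1 hg), hzv] at h1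
    rw [hv]; linear_combination h1
  · exact hns v hv

include hQs hpol in
theorem all_sympT (hsq : ∀ a : F, ∃ s : F, s ^ 2 = a) (hm : 2 ≤ m) (h2 : (2 : F) = 0)
    {M : Subgroup (GL (Fin m ⊕ Fin m) F)} (hMle : M ≤ Cfsg.spGL m F)
    (hO : ∀ v, Q v = 1 → sympT (isSymplecticForm m F) v 1 ∈ M) {u : (Fin m ⊕ Fin m → F)} (hu : sympT (isSymplecticForm m F) u 1 ∈ M) (hu1 : Q u ≠ 1)
    (hu0 : u ≠ 0) (hthree : ∃ c : F, c ≠ 0 ∧ c ≠ 1) (y : (Fin m ⊕ Fin m → F)) : sympT (isSymplecticForm m F) y 1 ∈ M := by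
  classical
  have hs2 : ∀ x : F, -x = x := fun x => by linear_combination (-x) * h2
  have hsym : ∀ x y : (Fin m ⊕ Fin m → F), Cfsg.sympForm m F x y = Cfsg.sympForm m F y x := fun x y => by
    rw [(isSymplecticForm m F).skew, hs2]
  -- conjugation
  have hconj : ∀ g ∈ M, ∀ v, sympT (isSymplecticForm m F) ((g : Matrix _ _ F) *ᵥ v) 1 ∈ M ↔ sympT (isSymplecticForm m F) v 1 ∈ M := by
    intro g hg v
    have he : g * sympT (isSymplecticForm m F) v 1 * g⁻¹ = sympT (isSymplecticForm m F) ((g : Matrix _ _ F) *ᵥ v) 1 :=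
      conj_transv g _ _ rfl fun x => by
        simp only [one_smul, pair_apply, (mem_spGL.1 (hMle hg))]
    rw [← he]
    exact ⟨fun h => by simpa [mul_assoc] using M.mul_mem (M.mul_mem (M.inv_mem hg) h) hg,
      fun h => M.mul_mem (M.mul_mem hg h) (M.inv_mem hg)⟩
  have hTw : ∀ (w x : (Fin m ⊕ Fin m → F)), ((sympT (isSymplecticForm m F) w 1 : GL (Fin m ⊕ Fin m) F) : Matrix _ _ F) *ᵥ x =
      x + Cfsg.sympForm m F x w • w := fun w x => by rw [sympT_mulVec, one_mul]
  obtain ⟨c0, hc0'⟩ := hsq ((1 + Q y) / (Q u + 1))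
  have hu1' : Q u + 1 ≠ 0 := fun h => hu1 (by linear_combination h - h2)
  have hc0 : (Q u + 1) * c0 ^ 2 = 1 + Q y := by rw [hc0', mul_div_cancel₀ _ hu1']
  -- any point with the right product lies in S
  have good : ∀ z, Q z = Q y → Cfsg.sympForm m F z u = c0 → sympT (isSymplecticForm m F) z 1 ∈ M := by
    intro z hzQ hzu
    rw [← hconj _ hu z]
    apply hO
    rw [Q_transv hQs hpol, hzQ, hzu, hc0]
    linear_combination Q y * h2
  have hOQ : ∀ w x : (Fin m ⊕ Fin m → F), Q w = 1 → Q ((sympT (isSymplecticForm m F) w 1 : Matrix _ _ F) *ᵥ x) = Q x := fun w x hw => by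
    rw [Q_transv hQs hpol, hw]; linear_combination (Cfsg.sympForm m F x w) ^ 2 * h2
  -- points not orthogonal to u
  have indep : ∀ z, Q z = Q y → Cfsg.sympForm m F z u ≠ 0 → sympT (isSymplecticForm m F) z 1 ∈ M := by
    intro z hzQ hzu
    set k := Cfsg.sympForm m F z u with hk
    set d := c0 - k with hd
    set w0 := (d / k) • z + k⁻¹ • u with hw0
    obtain ⟨l, hl, hlQ⟩ := exists_orth_value hQs hpol hsq hm {z, u}
      (Or.inr ⟨le_trans Finset.card_le_two hm, z, by simp, u, by simp, hzu⟩) (1 + Q w0)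
    have hlw0 : Cfsg.sympForm m F w0 l = 0 := by
      rw [hw0, (isSymplecticForm m F).bilinear.add_left, (isSymplecticForm m F).bilinear.smul_left,
        (isSymplecticForm m F).bilinear.smul_left, hsym z l, hl z (by simp), hsym u l, hl u (by simp)]
      ring
    have hwQ : Q (w0 + l) = 1 := by
      rw [Q_add hpol, hlQ, hlw0]; linear_combination Q w0 * h2
    have hwz : Cfsg.sympForm m F z (w0 + l) = 1 := by
      rw [(isSymplecticForm m F).bilinear.add_right, hsym z l, hl z (by simp), hw0,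
        (isSymplecticForm m F).bilinear.add_right, (isSymplecticForm m F).bilinear.smul_right,
        (isSymplecticForm m F).bilinear.smul_right, (isSymplecticForm m F).alternating, ← hk,
        inv_mul_cancel₀ hzu]
      ring
    have hwu : Cfsg.sympForm m F (w0 + l) u = d := by
      rw [(isSymplecticForm m F).bilinear.add_left, hl u (by simp), hw0, (isSymplecticForm m F).bilinear.add_left,
        (isSymplecticForm m F).bilinear.smul_left, (isSymplecticForm m F).bilinear.smul_left,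
        (isSymplecticForm m F).alternating, ← hk, div_mul_cancel₀ _ hzu]
      ring
    rw [← hconj _ (hO _ hwQ) z]
    refine good _ ((hOQ _ z hwQ).trans hzQ) ?_
    rw [hTw, hwz, one_smul, (isSymplecticForm m F).bilinear.add_left, hwu, hd, ← hk]; ring
  by_cases hy0 : y = 0
  · have : sympT (isSymplecticForm m F) y 1 = 1 := ext_mulVec fun x => by simp [sympT_mulVec, hy0]
    rw [this]; exact one_mem M
  by_cases hyu : Cfsg.sympForm m F y u = 0
  swap
  · exact indep y rfl hyu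
  obtain ⟨w, hwQ, hwy, hwu⟩ : ∃ w, Q w = 1 ∧ Cfsg.sympForm m F y w ≠ 0 ∧ Cfsg.sympForm m F u w ≠ 0 := by
    obtain ⟨w1, h1, h1'⟩ : ∃ w, Cfsg.sympForm m F y w ≠ 0 ∧ Cfsg.sympForm m F u w ≠ 0 := by
      obtain ⟨a, ha⟩ := (isSymplecticForm m F).nondegenerate y hy0 |>.2
      obtain ⟨b, hb⟩ := (isSymplecticForm m F).nondegenerate u hu0 |>.2
      by_cases h1 : Cfsg.sympForm m F u a = 0
      · by_cases h2 : Cfsg.sympForm m F y b = 0
        · exact ⟨a + b, by rw [(isSymplecticForm m F).bilinear.add_right, h2, add_zero]; exact ha,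
            by rw [(isSymplecticForm m F).bilinear.add_right, h1, zero_add]; exact hb⟩
        · exact ⟨b, h2, hb⟩
      · exact ⟨a, ha, h1⟩
    obtain ⟨w2, h2Q, h2y, h2u⟩ : ∃ w, Q w ≠ 0 ∧ Cfsg.sympForm m F y w ≠ 0 ∧ Cfsg.sympForm m F u w ≠ 0 := by
      by_cases hQ1 : Q w1 = 0
      swap
      · exact ⟨w1, hQ1, h1, h1'⟩
      have hyy : ∀ c : F, Cfsg.sympForm m F y (w1 + c • y) = Cfsg.sympForm m F y w1 := fun c => by
        rw [(isSymplecticForm m F).bilinear.add_right, (isSymplecticForm m F).bilinear.smul_right,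
          (isSymplecticForm m F).alternating, mul_zero, add_zero]
      have huy : ∀ c : F, Cfsg.sympForm m F u (w1 + c • y) = Cfsg.sympForm m F u w1 := fun c => by
        rw [(isSymplecticForm m F).bilinear.add_right, (isSymplecticForm m F).bilinear.smul_right,
          hsym u y, hyu, mul_zero, add_zero]
      obtain ⟨c, hc0, hc1⟩ : ∃ c : F, c ≠ 0 ∧ c * Q y + Cfsg.sympForm m F y w1 ≠ 0 := by
        by_cases hy : Q y + Cfsg.sympForm m F y w1 ≠ 0
        · exact ⟨1, one_ne_zero, by rwa [one_mul]⟩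
        push Not at hy
        obtain ⟨c, hc0, hc1⟩ := hthree
        refine ⟨c, hc0, fun h => hc1 ?_⟩
        have hQy : Q y ≠ 0 := fun h0 => h1 (by rw [h0, zero_add] at hy; exact hy)
        have : (c - 1) * Q y = 0 := by linear_combination h - hy
        exact sub_eq_zero.1 ((mul_eq_zero.1 this).resolve_right hQy)
      refine ⟨w1 + c • y, ?_, by rwa [hyy], by rwa [huy]⟩
      rw [Q_add hpol, hQ1, hQs, (isSymplecticForm m F).bilinear.smul_right, hsym w1 y,
        show (0 : F) + c ^ 2 * Q y + c * Cfsg.sympForm m F y w1 = c * (c * Q y + Cfsg.sympForm m F y w1) by ring]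
      exact mul_ne_zero hc0 hc1
    obtain ⟨s, hs⟩ := hsq (Q w2)⁻¹
    have hs0 : s ≠ 0 := fun h => h2Q (by rw [h] at hs; simpa using hs.symm)
    exact ⟨s • w2, by rw [hQs, hs, inv_mul_cancel₀ h2Q],
      by rw [(isSymplecticForm m F).bilinear.smul_right]; exact mul_ne_zero hs0 h2y,
      by rw [(isSymplecticForm m F).bilinear.smul_right]; exact mul_ne_zero hs0 h2u⟩
  rw [← hconj _ (hO _ hwQ) y]
  refine indep _ (hOQ _ y hwQ) ?_
  rw [hTw, (isSymplecticForm m F).bilinear.add_left, hyu, (isSymplecticForm m F).bilinear.smul_left, zero_add,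
    hsym w u]
  exact mul_ne_zero hwy hwu

end

open Matrix CfsgLib.TransvGL CfsgLib.AltFormTransv CfsgLib.SympFormStd
open CfsgLib.SmallSp.QuadIsometry (two_eq_zero exists_sq Q_add Q_transv)

/-- The maximality statement for small `m`. -/
theorem quadIsometry_isMaximal {F : Type*} [Field F] [Fintype F] (m : ℕ) (hm : 2 ≤ m) (heven : ¬ Odd (Fintype.card F)) (hq : 3 ≤ Fintype.card F) (Q : (Fin m ⊕ Fin m → F) → F) (hQ : Cfsg.Geo.IsNondegenerateQuadraticForm Q) (hpol : ∀ u v, QuadraticMap.polar Q u v = Cfsg.sympForm m F u v) : Cfsg.Geo.IsMaximalIn (Cfsg.spGL m F) (Cfsg.Geo.quadSimilarityGroup Q ⊓ Cfsg.spGL m F) := by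
  classical
  have h2 := two_eq_zero heven
  have hsq := exists_sq heven
  have hm5 : 2 ≤ m := hm
  have hQs := hQ.smul
  refine ⟨lt_of_le_not_ge inf_le_right fun hle => ?_, fun M hM1 hM2 => ?_⟩
  · -- a singular transvection is not a similitude
    obtain ⟨l1, -, hl1⟩ := exists_orth_value hQs hpol hsq hm5 ∅ (Or.inl (by simp; omega)) 1
    obtain ⟨d, hd⟩ := (isSymplecticForm m F).nondegenerate l1 (fun h0 => by
      have h3 := hQs 0 0
      rw [zero_smul] at h3
      rw [h0, h3] at hl1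
      simp at hl1) |>.2
    obtain ⟨l2, hl2, hl2Q⟩ := exists_orth_value hQs hpol hsq hm5 {l1, d}
      (Or.inr ⟨le_trans Finset.card_le_two hm5, l1, by simp, d, by simp, hd⟩) 1
    have hy : Q (l1 + l2) = 0 := by
      rw [Q_add hpol, hl1, hl2Q, orth_comm (isSymplecticForm m F) (hl2 l1 (by simp))]
      linear_combination h2
    have hy0 : l1 + l2 ≠ 0 := fun h0 => by
      apply hd
      have h3 : sympForm m F (l1 + l2) d = 0 := by rw [h0]; exact zero_left (isSymplecticForm m F) d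
      rwa [(isSymplecticForm m F).bilinear.add_left, hl2 d (by simp), add_zero] at h3
    obtain ⟨c, hc⟩ := (hle (sympT_mem_spGL (l1 + l2) 1)).1
    obtain ⟨x, hx⟩ := ((isSymplecticForm m F).nondegenerate _ hy0).1
    have hpr := sympT_preserves (isSymplecticForm m F) (l1 + l2) 1 x (l1 + l2)
    have e : sympForm m F x (l1 + l2) = (c : F) * sympForm m F x (l1 + l2) := by
      conv_lhs => rw [← hpr]
      rw [← hpol, ← hpol, QuadraticMap.polar, QuadraticMap.polar, ← mulVec_add, hc, hc, hc]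
      ring
    have hc1 : (c : F) = 1 := mul_right_cancel₀ hx (by linear_combination -e)
    have h3 := hc x
    rw [Q_transv hQs hpol, hy, hc1] at h3
    exact hx (pow_eq_zero_iff two_ne_zero |>.1 (by linear_combination h3))
  by_cases heq : M = Geo.quadSimilarityGroup Q ⊓ spGL m F
  · exact Or.inl heq
  refine Or.inr (le_antisymm hM2 ?_)
  obtain ⟨g, hgM, hg⟩ := SetLike.not_le_iff_exists.1 fun h => heq (le_antisymm h hM1)
  have hO : ∀ v, Q v = 1 → sympT (isSymplecticForm m F) v 1 ∈ M := fun v hv =>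
    hM1 ⟨⟨1, fun x => by
      rw [Q_transv hQs hpol, hv, Units.val_one]
      linear_combination (sympForm m F x v) ^ 2 * h2⟩, sympT_mem_spGL v 1⟩
  obtain ⟨v, hv1, hgv⟩ : ∃ v, Q v = 1 ∧ Q ((g : Matrix _ _ F) *ᵥ v) ≠ 1 := by
    by_contra hno
    push Not at hno
    exact hg ⟨mem_quadSim hQs hpol g (hM2 hgM) hsq hm5 h2 hno, hM2 hgM⟩
  have hu : sympT (isSymplecticForm m F) ((g : Matrix _ _ F) *ᵥ v) 1 ∈ M := by
    rw [show sympT (isSymplecticForm m F) ((g : Matrix _ _ F) *ᵥ v) 1 =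
      g * sympT (isSymplecticForm m F) v 1 * g⁻¹ from (conj_transv g _ _ rfl fun x => by
        simp only [one_smul, pair_apply, (mem_spGL.1 (hM2 hgM))]).symm]
    exact M.mul_mem (M.mul_mem hgM (hO v hv1)) (M.inv_mem hgM)
  have hu0 : (g : Matrix (Fin m ⊕ Fin m) (Fin m ⊕ Fin m) F) *ᵥ v ≠ 0 := fun h => by
    have hv0 : v = 0 := by
      have h4 := inv_mulVec_mulVec g v
      rw [h, mulVec_zero] at h4
      exact h4.symm
    have h3 := hQs 0 0
    rw [zero_smul] at h3
    rw [hv0, h3] at hv1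
    simp at hv1
  refine spGL_le_of_sympT_mem M fun y c => ?_
  obtain ⟨s, hs⟩ := hsq c
  have : sympT (isSymplecticForm m F) y c = sympT (isSymplecticForm m F) (s • y) 1 :=
    ext_mulVec fun x => by
      rw [sympT_mulVec, sympT_mulVec, (isSymplecticForm m F).bilinear.smul_right, smul_smul, ← hs]
      congr 2; ring
  rw [this]
  refine all_sympT hQs hpol hsq hm5 h2 hM2 hO hu hgv hu0 ?_ _
  obtain ⟨c, -, hc⟩ := Finset.exists_mem_notMem_of_card_lt_card (s := ({0, 1} : Finset F)) (t := Finset.univ)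
    (by rw [Finset.card_univ]; exact lt_of_le_of_lt Finset.card_le_two (by omega))
  simp only [Finset.mem_insert, Finset.mem_singleton, not_or] at hc
  exact ⟨c, hc.1, hc.2⟩

end CfsgLib.SpFour96.QuadIsometry
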