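import Cfsg.Agent.C3Max.Symp

/-!
The symplectic semilinear dichotomy over a ground field with at least three elements, in every dimension.
-/

set_option autoImplicit false
set_option linter.unusedSectionVars false
set_option linter.unusedSimpArgs false
set_option linter.style.haveILetI false

namespace CfsgLib.C3Max.Symp

open Module CfsgLib.FieldExtMax

variable {F L V : Type*} [Field F] [Field L] [Algebra F L] [AddCommGroup V] [Module F V]
  [Module L V] [IsScalarTower F L V] [Finite L] [IsGalois F L] [FiniteDimensional F L]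
  [FiniteDimensional F V] [FiniteDimensional L V]

local notation "Tr" => Algebra.trace F L

variable {B : V →ₗ[L] V →ₗ[L] L} {M : Subgroup (V ≃ₗ[F] V)} (hB : Over B M)
include hB

/-- The overgroup is semilinear or contains all transvections over the ground field. -/
theorem semiLin_or_transvections_of_three_le [Finite V] (hr : (finrank F L).Prime) (h2 : 2 ≤ finrank L V)
    (hq : 3 ≤ Nat.card F) :
    M ≤ semiLin F L V ∨ ∀ (c : F) (w : V),
      InM M ((c • (Tr ∘ₗ (B.flip w).restrictScalars F)).smulRight w) := by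
  classical
  by_cases hsl : M ≤ semiLin F L V
  · exact Or.inl hsl
  right
  obtain ⟨g, hgM, hg⟩ := SetLike.not_le_iff_exists.1 hsl
  obtain ⟨x₁, l₁, hmv⟩ : ∃ (x₁ : V) (l : L), g (l • x₁) ∉ lineF L (g x₁) (F := F) := by
    by_contra! h
    exact hg (mem_semiLin_of_lines h2 h)
  have hx₁ : x₁ ≠ 0 := fun h => hmv (by simp [h])
  have hP : ∀ (l : L) (a : V), True → True := fun _ _ _ => trivial
  obtain ⟨h₀, v₀, x₀, hp₀⟩ := exists_isMaxPair (L := L) (P := fun _ : V => True) (M := M)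
    (h := g) (v := g x₁) (x₀ := x₁) ⟨hgM, trivial, trivial, by simpa using hx₁, hx₁,
      ⟨x₁, self_mem_lineF x₁, rfl⟩, fun he => hmv
        (he ▸ (⟨l₁ • x₁, mem_lineF.2 ⟨l₁, rfl⟩, rfl⟩ :
          g (l₁ • x₁) ∈ (lineF L x₁).map (g : V →ₗ[F] V)))⟩
  have hfiso : ∀ {h : V ≃ₗ[F] V} {x₀ y z : V}, h ∈ M → y ∈ (lineF L x₀).map (h : V →ₗ[F] V) →
      z ∈ (lineF L x₀).map (h : V →ₗ[F] V) → Tr (B y z) = 0 := by
    rintro h x₀ _ _ hh ⟨y, hy, rfl⟩ ⟨z, hz, rfl⟩
    obtain ⟨k, rfl⟩ := mem_lineF.1 hy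
    obtain ⟨k', rfl⟩ := mem_lineF.1 hz
    rw [show Tr (B ((h : V →ₗ[F] V) (k • x₀)) ((h : V →ₗ[F] V) (k' • x₀))) = _ from hB.pres h hh _ _]
    simp [hB.alt]
  -- some maximal pair with a non-orthogonal member
  obtain ⟨h, v, x₀, hp, u₀, hu₀, hγ⟩ : ∃ h v x₀, IsMaxPair L (fun _ : V => True) M h v x₀ ∧
      ∃ u₀ ∈ (lineF L x₀).map (h : V →ₗ[F] V), B u₀ v ≠ 0 := by
    by_cases hc : ∃ u₀ ∈ (lineF L x₀).map (h₀ : V →ₗ[F] V), B u₀ v₀ ≠ 0
    · exact ⟨h₀, v₀, x₀, hp₀, hc⟩
    push Not at hc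
    obtain ⟨⟨hh, -, -, hv, hx, hvS, hSne⟩, hmax⟩ := hp₀
    set S := (lineF L x₀).map (h₀ : V →ₗ[F] V) with hS
    obtain ⟨u, huS, hu⟩ : ∃ u ∈ S, u ∉ lineF L v₀ (F := F) := by
      by_contra! hc'
      exact hSne (Submodule.eq_of_le_of_finrank_eq hc' (by
        rw [hS, LinearEquiv.finrank_map_eq, finrank_lineF hv, finrank_lineF hx]))
    obtain ⟨w, hvw, huw⟩ := exists_sep hB hv hu
    obtain ⟨c, hc1⟩ := Algebra.trace_surjective F L 1
    obtain ⟨t, ht, hty⟩ := hB.transv w c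
    have htu : Tr (B u (t u)) = 1 := by
      rw [hty, huw, map_add, hB.alt, zero_add, map_smul, huw]
      simpa using hc1
    have hne : S.map (t : V →ₗ[F] V) ≠ S := fun he => by
      rw [hfiso hh huS (show t u ∈ S from he ▸ ⟨u, huS, rfl⟩)] at htu
      exact zero_ne_one htu
    have hfix : ∀ y ∈ lineF L v₀ (F := F), t y = y := fun y hy => by
      obtain ⟨k, rfl⟩ := mem_lineF.1 hy
      rw [hty]; simp [hvw]
    obtain ⟨hpair, hdim, hle⟩ := IsMaxPair.meet_le ⟨⟨hh, trivial, trivial, hv, hx, hvS, hSne⟩, hmax⟩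
      hP ht hv hvS ⟨v₀, hvS, hfix v₀ (self_mem_lineF v₀)⟩ hne
    refine ⟨h₀⁻¹ * t * h₀, h₀.symm v₀, x₀, ⟨hpair, fun a b c hp' => (hmax a b c hp').trans ?_⟩,
      h₀.symm (t u), ?_, ?_⟩
    · rw [hdim]
      exact Submodule.finrank_mono fun y hy => ⟨⟨y, hy.2, hfix y hy.1⟩, hy.2⟩
    · obtain ⟨z, hz, hzu⟩ := huS
      exact ⟨z, hz, by rw [← hzu]; rfl⟩
    · intro h0
      obtain ⟨z, hz, hzu⟩ := huS
      obtain ⟨z', hz', hzv⟩ := hvS
      obtain ⟨k, rfl⟩ := mem_lineF.1 hz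
      obtain ⟨k', rfl⟩ := mem_lineF.1 hz'
      have hk' : k' ≠ 0 := fun h => hv (by rw [← hzv, h]; simp)
      have hu' : h₀.symm u = k • x₀ := by rw [LinearEquiv.symm_apply_eq]; exact hzu.symm
      have hv' : h₀.symm v₀ = k' • x₀ := by rw [LinearEquiv.symm_apply_eq]; exact hzv.symm
      rw [hv', map_smul, smul_eq_mul, mul_eq_zero] at h0
      have h1 := hB.pres h₀ hh (k • x₀) (h₀.symm (t u))
      rw [h₀.apply_symm_apply, show h₀ (k • x₀) = u from hzu, map_smul, LinearMap.smul_apply,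
        skew hB x₀, h0.resolve_left hk'] at h1
      rw [htu] at h1
      simp at h1
  choose t ht hty using hB.transv v
  obtain ⟨c, φ, e, hφ, he, hφe, hxM, hxa⟩ := hp.exists_transvection hr hP t ht
    ((B.flip v).restrictScalars F) (fun l => by simp [hB.alt]) (fun c y _ => hty c y) hu₀ hγ
  obtain ⟨p, hp'⟩ := exists_trace_eq φ
  have hp0 : p ≠ 0 := fun h0 => hφ (LinearMap.ext fun z => by simp [hp', h0])
  have hx₀ : x₀ ≠ 0 := hp.1.2.2.2.2.1
  simp only [hp'] at hxa
  haveI : Finite F := Finite.of_injective _ (algebraMap F L).injective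
  letI := Fintype.ofFinite F
  obtain ⟨s, hs⟩ : ∃ s : F, s ∉ ({0, 1} : Finset F) := by
    refine (Finset.exists_mem_notMem_of_card_lt_card (t := Finset.univ) ?_).imp fun s hs => hs.2
    rw [Finset.card_univ, ← Nat.card_eq_fintype_card]
    exact lt_of_le_of_lt Finset.card_le_two (by omega)
  simp only [Finset.mem_insert, Finset.mem_singleton, not_or] at hs
  -- the transvection scaled by a second scalar
  set x' : V ≃ₗ[F] V := h⁻¹ * t (s • c) * h with hx'
  have hx'M : x' ∈ M := M.mul_mem (M.mul_mem (M.inv_mem hp.1.1) (ht _)) hp.1.1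
  have hxy : ∀ y, (h⁻¹ * t c * h) y = y + h.symm ((c * B (h y) v) • v) := fun y => by
    change h.symm (t c (h y)) = _
    rw [hty, map_add, h.symm_apply_apply]
  have hx'y : ∀ y, x' y = y + s • h.symm ((c * B (h y) v) • v) := fun y => by
    change h.symm (t (s • c) (h y)) = _
    rw [hty, map_add, h.symm_apply_apply, smul_mul_assoc, smul_assoc, LinearEquiv.map_smul]
  have hx'a : ∀ l : L, x' (l • x₀) = (l + Tr (s • p * l) • e) • x₀ := fun l => by
    have h1 := hxa l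
    rw [hxy, add_smul, add_right_inj] at h1
    rw [hx'y, h1, add_smul, add_right_inj, smul_mul_assoc, map_smul, smul_eq_mul, mul_smul]
    simp [smul_assoc]
  obtain ⟨q, hq'⟩ : ∃ q, Tr (p * q) ≠ 0 := by
    obtain ⟨l, hl⟩ := Algebra.trace_surjective F L 1
    exact ⟨p⁻¹ * l, by rw [mul_inv_cancel_left₀ hp0, hl]; exact one_ne_zero⟩
  have h1 := root_delta hB hxM hxa hp0 q
  have h2' := root_delta hB hx'M hx'a (smul_ne_zero hs.1 hp0) q
  refine transvections_of_sq hB (c₀ := (s - 1) * Tr (p * q)) (mul_ne_zero (sub_ne_zero.2 hs.2) hq') hx₀ he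
    ((root_add hB h2' (root_neg hB h1)).congr fun y => ?_)
  simp only [rootMap_apply, LinearMap.add_apply, LinearMap.neg_apply, sqMap_apply, smul_mul_assoc, map_smul,
    smul_eq_mul, altMap_apply]
  rw [sub_mul, sub_mul, one_mul, sub_smul]
  congr 1
  abel

end CfsgLib.C3Max.Symp
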