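import Cfsg.Agent.Subfield54.SpMain

/-! Root elements above a symplectic subfield group in dimension at least four. -/

set_option autoImplicit false

namespace CfsgLib.SpFour96.Sp

open Matrix CfsgLib.TransvGL CfsgLib.AltFormTransv
open CfsgLib.Subfield54 CfsgLib.Subfield54.Sp

variable {ι : Type} [Fintype ι] [DecidableEq ι] {F : Type*} [Field F] {F₀ : Subfield F}
variable {f : (ι → F) → (ι → F) → F}
variable (hf : Cfsg.Geo.IsSymplecticForm f) (hR : RatForm f F₀) {M : Subgroup (GL ι F)}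
  (hT : ∀ v c, Rat F₀ v → c ∈ F₀ → sympT hf v c ∈ M)

include hR hT in
/-- A short root element with irrational parameter gives an irrational long root element. -/
theorem long_root_of_pair {a w ya : ι → F} {σ : F} (h2 : (2 : F) = 0) (ha : Rat F₀ a) (hw : Rat F₀ w)
    (hy : Rat F₀ ya) (hwa : f w a = 0) (hyw : f ya w = 0) (hya : f ya a = 1) (hτ : σ ^ 2 ∉ F₀)
    (hg : Y hf a (σ • w) (σ ^ 2) ∈ M) : ∃ σ', σ' ∉ F₀ ∧ sympT hf w σ' ∈ M := by
  have hneg : ∀ x : F, -x = x := fun x => by linear_combination (-x) * h2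
  have haw : f a w = 0 := orth_comm hf hwa
  have hwy : f w ya = 0 := orth_comm hf hyw
  have hay : f a ya = 1 := by rw [hf.skew, hya, hneg]
  have htwo : ∀ x : F, x + x = 0 := fun x => by linear_combination x * h2
  set τ := σ ^ 2 with hτdef
  -- coefficient-wise description of the elements at `w`
  let E : F → F → F → Prop := fun s t z => Y hf w (s • a + t • ya) z ∈ M
  have hperp : ∀ s t : F, f (s • a + t • ya) w = 0 := fun s t => by
    rw [hf.bilinear.add_left, hf.bilinear.smul_left, hf.bilinear.smul_left, haw, hyw]; ring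
  have hEmul : ∀ s t z s' t' z', E s t z → E s' t' z' →
      E (s + s') (t + t') (z + z' + (s' * t + t' * s)) := by
    intro s t z s' t' z' h h'
    have h3 := M.mul_mem h h'
    rw [Y_mul hf (hperp s t) (hperp s' t')] at h3
    show Y hf w _ _ ∈ M
    convert h3 using 2
    · module
    · simp [hf.bilinear.add_left, hf.bilinear.add_right, hf.bilinear.smul_left, hf.bilinear.smul_right,
        hf.alternating, hya, hay]
  have hEconj : ∀ (g : GL ι F) (s t z s' t' z' : F), g ∈ M → (∀ x y, f ((g : Matrix ι ι F) *ᵥ x)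
      ((g : Matrix ι ι F) *ᵥ y) = f x y) → (g : Matrix ι ι F) *ᵥ w = w →
      (∃ l : F, (g : Matrix ι ι F) *ᵥ (s • a + t • ya) = s' • a + t' • ya + l • w) → z = z' →
      E s t z → E s' t' z' := by
    rintro g s t z s' t' z' hgM hgI hgw ⟨l, hl⟩ rfl h
    have h3 := M.mul_mem (M.mul_mem hgM h) (M.inv_mem hgM)
    rw [Y_conj hf hgI hgw, hl] at h3
    show Y hf w _ _ ∈ M
    convert h3 using 1
    apply ext_mulVec
    intro x
    rw [Y_mulVec hf (hperp s' t'), Y_mulVec hf (v := s' • a + t' • ya + l • w) (by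
      rw [hf.bilinear.add_left, hperp, hf.bilinear.smul_left, hf.alternating]; ring),
      hf.bilinear.add_right x _ (l • w), hf.bilinear.smul_right]
    match_scalars <;> first | ring1 | linear_combination (-(l * f x w)) * h2 | linear_combination (l * f x w) * h2
  have hrat : ∀ s ∈ F₀, ∀ t ∈ F₀, E s t 0 := fun s hs t ht =>
    Y_rat_mem hf hT hw ((ha.smul hs).add (hy.smul ht)) F₀.zero_mem
  have hgw : (Y hf a (σ • w) τ : Matrix ι ι F) *ᵥ w = w := by
    rw [Y_mulVec hf (by rw [hf.bilinear.smul_left, hwa, mul_zero]), hf.bilinear.smul_right, hf.alternating, hwa]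
    simp
  have hgy : ∀ s t : F, ∃ l : F, (Y hf a (σ • w) τ : Matrix ι ι F) *ᵥ (s • a + t • ya) =
      (s + τ * t) • a + t • ya + l • w := fun s t => ⟨σ * t, by
    rw [Y_mulVec hf (by rw [hf.bilinear.smul_left, hwa, mul_zero]), hf.bilinear.smul_right,
      hperp, hf.bilinear.add_left, hf.bilinear.smul_left, hf.bilinear.smul_left, hf.alternating, hya]
    module⟩
  have hA : ∀ s t z, E s t z → E (s + τ * t) t z := fun s t z =>
    hEconj _ _ _ _ _ _ _ hg (Y_preserves hf _ _ _) hgw (hgy s t) rfl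
  -- a rational element interchanging `a` and `ya`
  have hs : sympT hf (a + ya) 1 ∈ M := hT _ _ (ha.add hy) F₀.one_mem
  have hsv : ∀ s t : F, (sympT hf (a + ya) 1 : Matrix ι ι F) *ᵥ (s • a + t • ya) = t • a + s • ya := fun s t => by
    rw [sympT_mulVec, one_mul, hf.bilinear.add_right, hf.bilinear.add_left, hf.bilinear.add_left,
      hf.bilinear.smul_left, hf.bilinear.smul_left, hf.bilinear.smul_left, hf.bilinear.smul_left,
      hf.alternating, hf.alternating, hya, hay]
    match_scalars <;> first | linear_combination s * h2 | linear_combination t * h2 | linear_combination -s * h2 | linear_combination -t * h2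
  have hsw : (sympT hf (a + ya) 1 : Matrix ι ι F) *ᵥ w = w := by
    rw [sympT_mulVec, hf.bilinear.add_right, hwa, hwy]; simp
  have hS : ∀ s t z, E s t z → E t s z := fun s t z =>
    hEconj _ _ _ _ _ _ _ hs (sympT_preserves hf _ _) hsw ⟨0, by rw [hsv]; simp⟩ rfl
  have h01 := hrat 0 F₀.zero_mem 1 F₀.one_mem
  -- `(τ a, τ)`
  have hτa : E τ 0 τ := by
    have h := hEmul _ _ _ _ _ _ (hA 0 1 0 h01) h01
    convert h using 1 <;> simp [htwo]
  have hτy : E 0 τ τ := hS _ _ _ hτa
  by_cases h : τ ^ 2 + τ ∈ F₀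
  swap
  · -- two sums of `τ`-elements
    refine ⟨τ ^ 2 + τ, h, ?_⟩
    have hT' : (sympT hf ya 1 : Matrix ι ι F) *ᵥ w = w := by rw [sympT_mulVec, hwy]; simp
    have h1 : E τ τ τ := hEconj _ _ _ _ _ _ _ (hT _ _ hy F₀.one_mem) (sympT_preserves hf _ _) hT'
      ⟨0, by rw [sympT_mulVec, one_mul, hf.bilinear.add_left, hf.bilinear.smul_left, hf.bilinear.smul_left,
        hay, hf.alternating]; module⟩ rfl hτa
    have h3 := hEmul _ _ _ _ _ _ h1 (hEmul _ _ _ _ _ _ hτa hτy)
    have e : E 0 0 (τ ^ 2 + τ) := by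
      convert h3 using 1 <;> first | ring1 | (simp [htwo]; done) | (simp [htwo]; ring1) | linear_combination (-τ - τ ^ 2) * h2
    simpa [E, Y_zero] using e
  · -- `τ` is quadratic
    set c := τ ^ 2 + τ with hc
    refine ⟨τ ^ 3 + τ, fun hmem => ?_, ?_⟩
    · by_cases hc0 : c = 0
      · have h3 : τ * (τ + 1) = 0 := by linear_combination hc0 - hc
        rcases mul_eq_zero.1 h3 with h4 | h4
        · exact hτ (h4 ▸ F₀.zero_mem)
        · exact hτ (by rw [eq_neg_of_add_eq_zero_left h4]; exact F₀.neg_mem F₀.one_mem)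
      · have h4 : τ ^ 3 + τ = c * τ + c := by linear_combination (-(τ + 1)) * hc - τ ^ 2 * h2
        rw [h4] at hmem
        refine hτ ?_
        have h5 := F₀.div_mem (F₀.sub_mem hmem h) h
        rwa [add_sub_cancel_right, mul_div_cancel_left₀ _ hc0] at h5
    · -- `(τ a, τ)` conjugated gives `(τ² a, τ³)`
      have h2a : E (τ ^ 2) 0 (τ ^ 3) := by
        have h1 := hEmul _ _ _ _ _ _ (hA 0 τ τ hτy) hτy
        convert h1 using 1 <;> first | ring1 | (simp [htwo]; done) | (simp [htwo]; ring1) | linear_combination (-τ) * h2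
      have h3 := hEmul _ _ _ _ _ _ (hEmul _ _ _ _ _ _ h2a hτa) (hrat c h 0 F₀.zero_mem)
      have e : E 0 0 (τ ^ 3 + τ) := by
        convert h3 using 1 <;> first | linear_combination (-(τ ^ 2 + τ)) * h2 + hc | ring1 | simp
      simpa [E, Y_zero] using e

include hR hT in
/-- An irrational root element gives an irrational long root element. -/
theorem long_root_of_root [Fintype F] {a v w : ι → F} {z : F}
    (ha : Rat F₀ a) (ha0 : a ≠ 0) (hv : f v a = 0) (hY : Y hf a v z ∈ M) (hw : Rat F₀ w)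
    (hwa : f w a = 0) (hσ : f v w ∉ F₀) : ∃ σ, σ ∉ F₀ ∧ sympT hf a σ ∈ M := by
  have hN := Y_commutator hf hT hv hY hw hwa
  set σ := f v w with hσdef
  have hσwa : f (σ • w) a = 0 := by rw [hf.bilinear.smul_left, hwa, mul_zero]
  obtain ⟨w₁, hw₁, hw₁a, hw₁w⟩ : ∃ z, Rat F₀ z ∧ f z a = 0 ∧ f z w ≠ 0 :=
    exists_rat_perp_sep hf hR ha ha0 fun s hs => hσ (by
      rw [hσdef, hs, hf.bilinear.smul_right, hv, mul_zero]; exact F₀.zero_mem)
  set w' := (f w₁ w)⁻¹ • w₁ with hw'
  have hw'r : Rat F₀ w' := hw₁.smul (F₀.inv_mem (hR _ _ hw₁ hw))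
  have hw'a : f w' a = 0 := by rw [hw', hf.bilinear.smul_left, hw₁a, mul_zero]
  have hw'w : f w' w = 1 := by rw [hw', hf.bilinear.smul_left, inv_mul_cancel₀ hw₁w]
  clear_value w' σ
  by_cases h2 : (2 : F) = 0
  swap
  · refine ⟨2 * σ, fun h => hσ ?_, ?_⟩
    · have : σ = 2 * σ / 2 := by field_simp
      rw [this]
      exact F₀.div_mem h (by simpa using F₀.add_mem F₀.one_mem F₀.one_mem |> (one_add_one_eq_two (R := F) ▸ ·))
    · have hy' := Y_rat_mem hf hT ha hw'r F₀.zero_mem
      have e : Y hf a (σ • w) (-σ ^ 2) * Y hf a w' 0 =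
          sympT hf a (2 * σ) * (Y hf a w' 0 * Y hf a (σ • w) (-σ ^ 2)) := by
        rw [← Y_zero hf a, Y_mul hf hw'a hσwa, Y_mul hf hσwa hw'a,
          Y_mul hf (AltFormTransv.zero_left hf a) (by rw [hf.bilinear.add_left, hw'a, hσwa, add_zero])]
        congr 1
        · module
        · rw [AltFormTransv.zero_right hf, hf.bilinear.smul_right, hf.bilinear.smul_left, hw'w,
            hf.skew w w', hw'w]
          ring
      rw [eq_mul_inv_of_mul_eq e.symm]
      exact M.mul_mem (M.mul_mem hN hy') (M.inv_mem (M.mul_mem hy' hN))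
  have hneg : ∀ x : F, -x = x := fun x => by linear_combination (-x) * h2
  have hσ2 : σ ^ 2 ∉ F₀ := by
    intro h
    haveI : CharP F 2 := by
      have : CharP F (ringChar F) := ringChar.charP F
      have h2' : ringChar F ∣ 2 := (CharP.cast_eq_zero_iff F (ringChar F) 2).mp (by exact_mod_cast h2)
      rcases (Nat.dvd_prime Nat.prime_two).mp h2' with h | h
      · exact absurd h (CharP.ringChar_ne_one)
      · exact h ▸ this
    haveI : CharP F₀ 2 := F₀.subtype.charP Subtype.val_injective 2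
    obtain ⟨y, hy⟩ := (bijective_frobenius F₀ 2).2 ⟨σ ^ 2, h⟩
    rw [frobenius_def] at hy
    have h1 : (y : F) ^ 2 = σ ^ 2 := by rw [← SubmonoidClass.coe_pow, hy]
    have h3 : ((y : F) - σ) ^ 2 = 0 := by linear_combination h1 + (σ ^ 2 - y * σ) * h2
    exact hσ (sub_eq_zero.mp (pow_eq_zero_iff two_ne_zero |>.mp h3) ▸ y.2)
  rw [hneg] at hN
  -- the partner of `a` orthogonal to `w`
  obtain ⟨y₁, hy₁, hy₁a⟩ := exists_rat_pair_ne (F₀ := F₀) hf ha0
  obtain ⟨ya', hya'r, hya'a⟩ : ∃ ya', Rat F₀ ya' ∧ f ya' a = 1 :=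
    ⟨(f y₁ a)⁻¹ • y₁, hy₁.smul (F₀.inv_mem (hR _ _ hy₁ ha)), by
      rw [hf.bilinear.smul_left, inv_mul_cancel₀ hy₁a]⟩
  set ya := ya' - f ya' w • w' with hya
  have hyar : Rat F₀ ya := hya'r.sub (hw'r.smul (hR _ _ hya'r hw))
  have hyaa : f ya a = 1 := by
    rw [hya, sub_left hf, hf.bilinear.smul_left, hw'a, mul_zero, sub_zero, hya'a]
  have hyaw : f ya w = 0 := by
    rw [hya, sub_left hf, hf.bilinear.smul_left, hw'w, mul_one, sub_self]
  clear_value ya
  obtain ⟨σ', hσ', hwM⟩ := long_root_of_pair hf hR hT h2 ha hw hyar hwa hyaw hyaa hσ2 hN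
  -- move it from `w` to `a`
  have hz : f w (w' + ya) ≠ 0 := by
    rw [hf.bilinear.add_right, orth_comm hf hyaw, add_zero, hf.skew, hw'w]; simp
  have hz' : f (w' + ya) a ≠ 0 := by
    rw [hf.bilinear.add_left, hw'a, hyaa, zero_add]; exact one_ne_zero
  have hmove : ∀ u v, Rat F₀ u → Rat F₀ v → f u v ≠ 0 → sympT hf u σ' ∈ M → sympT hf v σ' ∈ M := by
    intro u v hu hv huv h
    have ht := hT (v - u) (f u v)⁻¹ (hv.sub hu) (F₀.inv_mem (hR _ _ hu hv))
    rw [← sympT_maps hf huv, ← sympT_conj hf (sympT_preserves hf _ _)]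
    exact M.mul_mem (M.mul_mem ht h) (M.inv_mem ht)
  exact ⟨σ', hσ', hmove _ a (hw'r.add hyar) ha hz' (hmove w _ hw (hw'r.add hyar) hz hwM)⟩

include hR hT in
/-- A transvection of `M` with irrational centre orthogonal to a rational vector. -/
theorem long_root_of_orth [Fintype F] {a b : ι → F} {k : F}
    (hk : k ≠ 0) (hbM : sympT hf b k ∈ M) (hbL : ¬ RatLine F₀ b) (ha : Rat F₀ a) (ha0 : a ≠ 0)
    (hab : f a b = 0) : ∃ σ, σ ∉ F₀ ∧ sympT hf a σ ∈ M := by
  obtain ⟨w₀, hw₀, hw₀a, hw₀b⟩ := exists_rat_perp_sep hf hR ha ha0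
    (a := b) fun s hs => hbL ⟨s, a, ha, hs⟩
  set lam := f b w₀ with hlam
  have hlam0 : lam ≠ 0 := fun h => hw₀b (orth_comm hf h)
  have hba : f b a = 0 := orth_comm hf hab
  set μ := k * lam with hμ
  have hμ0 : μ ≠ 0 := mul_ne_zero hk hlam0
  have ht := Y_rat_mem hf hT ha hw₀ F₀.zero_mem
  have h1 := M.mul_mem (M.mul_mem (M.mul_mem ht hbM) (M.inv_mem ht)) (M.inv_mem hbM)
  rw [sympT_conj hf (Y_preserves hf _ _ _), sympT_inv] at h1
  have htb : (Y hf a w₀ 0 : Matrix ι ι F) *ᵥ b = b + lam • a := by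
    rw [Y_mulVec hf hw₀a]; simp [hba, hlam]
  have hμba : f (μ • b) a = 0 := by rw [hf.bilinear.smul_left, hba, mul_zero]
  have hYb : Y hf a (μ • b) (k * lam ^ 2) ∈ M := by
    convert h1 using 1
    apply ext_mulVec
    intro x
    rw [htb, Units.val_mul, ← mulVec_mulVec, Y_mulVec hf hμba, sympT_mulVec, sympT_mulVec]
    simp [hf.bilinear.add_left, hf.bilinear.add_right, hf.bilinear.smul_left, hf.bilinear.smul_right,
      hf.alternating, hba, hμ, neg_left hf]
    module
  by_cases hall : ∃ w, Rat F₀ w ∧ f w a = 0 ∧ f (μ • b) w ∉ F₀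
  · obtain ⟨w, hw, hwa, hwσ⟩ := hall
    exact long_root_of_root hf hR hT ha ha0 hμba hYb hw hwa hwσ
  push Not at hall
  obtain ⟨y₁, hy₁, hy₁a⟩ := exists_rat_pair_ne (F₀ := F₀) hf ha0
  set e := (f y₁ a)⁻¹ • y₁ with he
  have her : Rat F₀ e := hy₁.smul (F₀.inv_mem (hR _ _ hy₁ ha))
  have hea : f e a = 1 := by rw [he, hf.bilinear.smul_left, inv_mul_cancel₀ hy₁a]
  set u := μ • (b - f e b • a) with hu
  have hur : Rat F₀ u := rat_of_ratD_pair hf hR fun i => by
    set x : ι → F := Pi.single i 1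
    have hx : Rat F₀ x := rat_single i
    have h := F₀.neg_mem (hall (x - f x a • e) (hx.sub (her.smul (hR _ _ hx ha)))
      (by rw [sub_left hf, hf.bilinear.smul_left, hea, mul_one, sub_self]))
    rw [hf.bilinear.smul_left, hf.skew b, mul_neg, neg_neg, sub_left hf, hf.bilinear.smul_left] at h
    rw [pair_apply, hu, hf.bilinear.smul_right, sub_right hf, hf.bilinear.smul_right]
    convert h using 2
    ring
  set β := μ * f e b with hβ
  have hμb : μ • b = u + β • a := by rw [hu, hβ]; module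
  have huw : f u w₀ = k * lam ^ 2 := by
    rw [hu, hf.bilinear.smul_left, sub_left hf, hf.bilinear.smul_left, orth_comm hf hw₀a, mul_zero,
      sub_zero, ← hlam, hμ]
    ring
  have hc : k * lam ^ 2 ∈ F₀ := huw ▸ hR _ _ hur hw₀
  have hβF : β ∉ F₀ := fun h => hbL ⟨μ⁻¹, u + β • a, hur.add (ha.smul h),
    by rw [← hμb, inv_smul_smul₀ hμ0]⟩
  have hua : f u a = 0 := by
    rw [hu, hf.bilinear.smul_left, sub_left hf, hf.bilinear.smul_left, hba, hf.alternating]
    ring
  set c := (k * lam ^ 2)⁻¹ with hcdef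
  have hsua : f ((c * β) • u) a = 0 := by rw [hf.bilinear.smul_left, hua, mul_zero]
  have e6 : sympT hf b k = sympT hf u c * Y hf a ((c * β) • u) (c * β ^ 2) := by
    have e7 : sympT hf b k = sympT hf (μ • b) c := by
      rw [sympT_smul]; congr 1; rw [hcdef, hμ]; field_simp
    rw [e7, hμb]
    apply ext_mulVec
    intro x
    rw [Units.val_mul, ← mulVec_mulVec, Y_mulVec hf hsua, sympT_mulVec, sympT_mulVec]
    simp [hf.bilinear.add_left, hf.bilinear.add_right, hf.bilinear.smul_left, hf.bilinear.smul_right,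
      hf.alternating, hua, orth_comm hf hua]
    module
  have hYu : Y hf a ((c * β) • u) (c * β ^ 2) ∈ M := by
    rw [show Y hf a ((c * β) • u) (c * β ^ 2) = (sympT hf u c)⁻¹ * sympT hf b k by rw [e6]; group]
    exact M.mul_mem (M.inv_mem (hT _ _ hur (F₀.inv_mem hc))) hbM
  refine long_root_of_root hf hR hT ha ha0 hsua hYu hw₀ hw₀a ?_
  rw [hf.bilinear.smul_left, huw, hcdef]
  rwa [mul_comm (k * lam ^ 2)⁻¹ β, mul_assoc, inv_mul_cancel₀ (mul_ne_zero hk (pow_ne_zero 2 hlam0)),
    mul_one]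



end CfsgLib.SpFour96.Sp
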